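import Cfsg.Agent.Lib.Golay.Dodecad
import Cfsg.Agent.Lib.Golay.Orbits
import Cfsg.Agent.Lib.M24Orb.Triads

/-!
# Certificates for orbits of stabilisers in the group of the code

`Good F M σ`: `σ` is in the group of the code, fixes the points numbered in `F` and preserves the
sets with masks in `M`.  Tables of packed permutations certify orbits.
-/

set_option autoImplicit false

namespace Cfsg.Agent.Lib.GolayCert.Basic

open Cfsg Cfsg.Agent.Lib.Golay.Core Cfsg.Agent.Lib.Golay.Perm Cfsg.Agent.Lib.Golay.Chain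
  Cfsg.Agent.Lib.Golay.M24 Cfsg.Agent.Lib.Golay.Basic Cfsg.Agent.Lib.Golay.Stab
  Cfsg.Agent.Lib.M24Orb.Subsets
open scoped Pointwise

/-! ## Fast list operations -/

/-- Membership test for lists of numbers. -/
def memN (x : ℕ) (l : List ℕ) : Bool :=
  List.rec false (fun y _ ih => cond (Nat.beq x y) true ih) l

theorem memN_iff {x : ℕ} {l : List ℕ} : memN x l = true ↔ x ∈ l := by
  induction l with
  | nil => simp [memN]
  | cons y l ih =>
    have e : memN x (y :: l) = cond (Nat.beq x y) true (memN x l) := rfl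
    rw [e, List.mem_cons]
    cases h : Nat.beq x y with
    | false =>
      have hne : x ≠ y := by
        intro hc
        rw [hc, Nat.beq_refl] at h
        exact absurd h (by simp)
      simp only [cond_false, ih, hne, false_or]
    | true =>
      simp [Nat.eq_of_beq_eq_true h]

/-- `all` for lists of any type. -/
def allG {α : Type*} (p : α → Bool) (l : List α) : Bool :=
  List.rec true (fun y _ ih => cond (p y) ih false) l

theorem allG_iff {α : Type*} {p : α → Bool} {l : List α} :
    allG p l = true ↔ ∀ x ∈ l, p x = true := by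
  induction l with
  | nil => simp [allG]
  | cons y l ih =>
    have e : allG p (y :: l) = cond (p y) (allG p l) false := rfl
    rw [e]
    cases h : p y with
    | false => simp [h]
    | true => simp [h, ih]

/-- `any` for lists of any type. -/
def anyG {α : Type*} (p : α → Bool) (l : List α) : Bool :=
  List.rec false (fun y _ ih => cond (p y) true ih) l

theorem anyG_iff {α : Type*} {p : α → Bool} {l : List α} :
    anyG p l = true ↔ ∃ x ∈ l, p x = true := by
  induction l with
  | nil => simp [anyG]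
  | cons y l ih =>
    have e : anyG p (y :: l) = cond (p y) true (anyG p l) := rfl
    rw [e]
    cases h : p y with
    | false => simp [h, ih]
    | true => simp [h]

/-- Semantic property of the elements of a stabiliser. -/
structure Good (F M : List ℕ) (σ : Equiv.Perm GolayPt) : Prop where
  mem : σ ∈ M24
  fix : ∀ i ∈ F, σ (pt i) = pt i
  stab : ∀ n ∈ M, σ • setOf n = setOf n

namespace Good

variable {F M : List ℕ} {σ τ : Equiv.Perm GolayPt}

theorem mul (h1 : Good F M σ) (h2 : Good F M τ) : Good F M (σ * τ) where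
  mem := M24.mul_mem h1.mem h2.mem
  fix i hi := by rw [Equiv.Perm.mul_apply, h2.fix i hi, h1.fix i hi]
  stab n hn := by rw [mul_smul, h2.stab n hn, h1.stab n hn]

theorem inv (h : Good F M σ) : Good F M σ⁻¹ where
  mem := M24.inv_mem h.mem
  fix i hi := by
    rw [Equiv.Perm.inv_eq_iff_eq]
    exact (h.fix i hi).symm
  stab n hn := by
    rw [inv_smul_eq_iff]
    exact (h.stab n hn).symm

theorem one : Good F M 1 where
  mem := M24.one_mem
  fix _ _ := rfl
  stab _ _ := one_smul _ _

end Good

/-- The test for a packed permutation. -/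
def goodB (F M : List ℕ) (P : ℕ) : Bool :=
  checkAut P && allL (fun i => Nat.blt i 24 && Nat.beq (img P i) i) F &&
    allL (fun n => Nat.beq (mapMask P n) n) M

theorem goodB_spec {F M : List ℕ} {P : ℕ} (h : goodB F M P = true) : Good F M (g P) := by
  simp only [goodB, Bool.and_eq_true] at h
  obtain ⟨⟨h1, h2⟩, h3⟩ := h
  have hv := checkAut_valid h1
  refine ⟨g_mem_M24 h1, fun i hi => ?_, fun n hn => ?_⟩
  · have h4 := allL_iff.mp h2 i hi
    simp only [Bool.and_eq_true] at h4
    rw [g_pt hv (Nat.blt_eq.mp h4.1), Nat.eq_of_beq_eq_true h4.2]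
  · rw [smul_setOf hv, Nat.eq_of_beq_eq_true (allL_iff.mp h3 n hn)]

/-- Check a table: `T` is a list of permutations with `mapMask P r = a` for the entries of `S`. -/
def tabOK (F M : List ℕ) (r : ℕ) : List ℕ → List ℕ → Bool
  | [], [] => true
  | P :: T, a :: S => goodB F M P && Nat.beq (mapMask P r) a && tabOK F M r T S
  | _, _ => false

theorem tabOK_spec {F M : List ℕ} {r : ℕ} {T S : List ℕ} (h : tabOK F M r T S = true) {a : ℕ}
    (ha : a ∈ S) : ∃ P, goodB F M P = true ∧ mapMask P r = a := by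
  induction T generalizing S with
  | nil =>
    cases S with
    | nil => simp at ha
    | cons b S => simp [tabOK] at h
  | cons P T ih =>
    cases S with
    | nil => simp at ha
    | cons b S =>
      simp only [tabOK, Bool.and_eq_true] at h
      rcases List.mem_cons.mp ha with rfl | hS
      · exact ⟨P, h.1.1, Nat.eq_of_beq_eq_true h.1.2⟩
      · exact ih h.2 hS

/-- Two entries of a certified table are in one orbit. -/
theorem exists_between {F M : List ℕ} {r : ℕ} {T S : List ℕ} (h : tabOK F M r T S = true) {a b : ℕ}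
    (ha : a ∈ S) (hb : b ∈ S) : ∃ σ, Good F M σ ∧ σ • setOf a = setOf b := by
  obtain ⟨P, hP, rfl⟩ := tabOK_spec h ha
  obtain ⟨Q, hQ, rfl⟩ := tabOK_spec h hb
  have hgP := goodB_spec hP
  have hgQ := goodB_spec hQ
  have hvP : validPerm P = true := checkAut_valid (by
    simp only [goodB, Bool.and_eq_true] at hP; exact hP.1.1)
  have hvQ : validPerm Q = true := checkAut_valid (by
    simp only [goodB, Bool.and_eq_true] at hQ; exact hQ.1.1)
  refine ⟨g Q * (g P)⁻¹, hgQ.mul hgP.inv, ?_⟩
  rw [mul_smul, inv_smul_eq_iff.mpr (smul_setOf hvP r).symm, smul_setOf hvQ]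

/-! ## Counting words -/

theorem ncard_words_filter (k : ℕ) (P : Finset GolayPt → Prop) (p : ℕ → Bool)
    (h : ∀ m < 4096, P (setOf (code m)) ↔ p (code m) = true) :
    {s | s ∈ wordsOfWeight (golayCode : Set (GolayPt → ZMod 2)) k ∧ P s}.ncard =
      countUpTo (fun m => Nat.beq (pop (code m)) k && p (code m)) 4096 := by
  have e : {s | s ∈ wordsOfWeight (golayCode : Set (GolayPt → ZMod 2)) k ∧ P s} =
      (fun m => setOf (code m)) '' ((((Finset.range 4096).filter
        fun m => (Nat.beq (pop (code m)) k && p (code m)) = true) : Finset ℕ) : Set ℕ) := by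
    ext s
    simp only [mem_wordsOfWeight_iff, Set.mem_image, Finset.coe_filter, Finset.mem_range,
      Set.mem_ofPred_eq, Bool.and_eq_true]
    constructor
    · rintro ⟨⟨m, hm, hk, rfl⟩, hP⟩
      exact ⟨m, ⟨hm, by rw [hk]; exact Nat.beq_refl k, (h m hm).mp hP⟩, rfl⟩
    · rintro ⟨m, ⟨hm, hk, hp⟩, rfl⟩
      exact ⟨⟨m, hm, Nat.eq_of_beq_eq_true hk, rfl⟩, (h m hm).mpr hp⟩
  rw [e, Set.InjOn.ncard_image, Set.ncard_coe_finset, countUpTo_eq]
  intro a ha b hb hab
  simp only [Finset.coe_filter, Finset.mem_range, Set.mem_ofPred_eq] at ha hb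
  exact code_injOn ha.1 hb.1 (eq_of_setOf_eq (code_lt ha.1) (code_lt hb.1) hab)

theorem ncard_octads_filter (P : Finset GolayPt → Prop) (p : ℕ → Bool)
    (h : ∀ m < 4096, P (setOf (code m)) ↔ p (code m) = true) :
    {s | s ∈ octads ∧ P s}.ncard =
      countUpTo (fun m => Nat.beq (pop (code m)) 8 && p (code m)) 4096 :=
  ncard_words_filter 8 P p h

theorem ncard_dodecads_filter (P : Finset GolayPt → Prop) (p : ℕ → Bool)
    (h : ∀ m < 4096, P (setOf (code m)) ↔ p (code m) = true) :
    {s | s ∈ dodecads ∧ P s}.ncard =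
      countUpTo (fun m => Nat.beq (pop (code m)) 12 && p (code m)) 4096 :=
  ncard_words_filter 12 P p h

/-! ## Bridges between sets and masks -/

theorem pt_mem_setOf {i n : ℕ} (hi : i < 24) : pt i ∈ setOf n ↔ n.testBit i = true := by
  rw [mem_setOf, idx_pt hi]

theorem card_inter_setOf (a b : ℕ) : (setOf a ∩ setOf b).card = pop (Nat.land a b) := by
  rw [← setOf_inter, card_setOf]
  rfl

/-! ## Transport -/

theorem ncard_smul_eq (τ : Equiv.Perm GolayPt) {A B : Set (Finset GolayPt)}
    (h : ∀ s, s ∈ A ↔ τ • s ∈ B) : A.ncard = B.ncard := by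
  have e : B = (fun s => τ • s) '' A := by
    ext b
    constructor
    · intro hb
      refine ⟨τ⁻¹ • b, (h _).mpr ?_, ?_⟩
      · simpa using hb
      · simp
    · rintro ⟨a, ha, rfl⟩
      exact (h a).mp ha
  rw [e, Set.ncard_image_of_injective _ (MulAction.injective τ)]

theorem mem_smul_iff (τ : Equiv.Perm GolayPt) (x : GolayPt) (s : Finset GolayPt) :
    τ x ∈ τ • s ↔ x ∈ s :=
  Finset.smul_mem_smul_finset_iff τ

theorem card_inter_smul (τ : Equiv.Perm GolayPt) (a b : Finset GolayPt) :
    (τ • a ∩ τ • b).card = (a ∩ b).card := by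
  rw [← Finset.smul_finset_inter, Finset.card_smul_finset]

/-! ## Normal forms for flags -/

/-- Extending a list of points of a set. -/
theorem exists_extend_list {s : Finset GolayPt} {l : List GolayPt} (hl : l.Nodup)
    (hsub : ∀ x ∈ l, x ∈ s) (k : ℕ) (hk : l.length + k ≤ s.card) :
    ∃ r : List GolayPt, r.length = k ∧ (l ++ r).Nodup ∧ ∀ x ∈ r, x ∈ s := by
  classical
  have hc : k ≤ (s \ l.toFinset).card := by
    have h1 : l.toFinset ⊆ s := fun x hx => hsub x (List.mem_toFinset.mp hx)
    rw [Finset.card_sdiff_of_subset h1, List.toFinset_card_of_nodup hl]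
    omega
  obtain ⟨u, hu, huc⟩ := Finset.exists_subset_card_eq hc
  refine ⟨u.toList, by simp [huc], ?_, ?_⟩
  · rw [List.nodup_append]
    refine ⟨hl, u.nodup_toList, ?_⟩
    intro a ha b hb hab
    subst hab
    have h2 := hu (Finset.mem_toList.mp hb)
    exact (Finset.mem_sdiff.mp h2).2 (List.mem_toFinset.mpr ha)
  · intro x hx
    have h2 := hu (Finset.mem_toList.mp hx)
    exact (Finset.mem_sdiff.mp h2).1

/-- The octad through five listed points is moved to the base octad. -/
theorem exists_flag_list {o : Finset GolayPt} (ho : o ∈ octads) {l l' : List GolayPt}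
    (hl : l.Nodup) (hsub : ∀ x ∈ l, x ∈ o) (hl' : l'.Nodup) (hsub' : ∀ x ∈ l', x ∈ setOf O0)
    (hlen : l.length = l'.length) (h5 : l.length ≤ 5) :
    ∃ τ ∈ M24, l.map τ = l' ∧ τ • o = setOf O0 := by
  classical
  have ho8 : o.card = 8 := ho.2
  have hO8 : (setOf O0).card = 8 := O0_mem.2
  obtain ⟨r, hr, hlr, hrs⟩ := exists_extend_list hl hsub (5 - l.length) (by omega)
  obtain ⟨r', hr', hlr', hrs'⟩ := exists_extend_list hl' hsub' (5 - l.length) (by omega)
  obtain ⟨τ, hτ, h⟩ := exists_map_list (l ++ r) (l' ++ r') (by simp [hr, hr', hlen])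
    (by simp only [List.length_append, hr]; omega) hlr hlr'
  rw [List.map_append] at h
  have h1 := List.append_inj h (by simp [hlen])
  refine ⟨τ, hτ, h1.1, ?_⟩
  apply two_octads_eq (smul_mem_octads hτ ho) O0_mem
  have hc : ((l' ++ r').toFinset).card = 5 := by
    rw [List.toFinset_card_of_nodup hlr']
    simp only [List.length_append, hr']
    omega
  rw [← hc]
  apply Finset.card_le_card
  intro x hx
  have hx' := List.mem_toFinset.mp hx
  refine Finset.mem_inter.mpr ⟨?_, ?_⟩
  · rw [← h, ← List.map_append, List.mem_map] at hx'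
    obtain ⟨y, hy, rfl⟩ := hx'
    refine Finset.smul_mem_smul_finset ?_
    rcases List.mem_append.mp hy with hy | hy
    · exact hsub y hy
    · exact hrs y hy
  · rcases List.mem_append.mp hx' with hy | hy
    · exact hsub' x hy
    · exact hrs' x hy

/-- A point on an octad is moved to a given point of the base octad. -/
theorem exists_flag_one {o : Finset GolayPt} (ho : o ∈ octads) {x : GolayPt} (hx : x ∈ o) {y : ℕ}
    (hy : y < 24) (hy' : O0.testBit y = true) : ∃ τ ∈ M24, τ x = pt y ∧ τ • o = setOf O0 := by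
  obtain ⟨τ, hτ, h1, h2⟩ := exists_flag_list ho (l := [x]) (l' := [pt y]) (by simp)
    (by simpa using hx) (by simp) (by simpa using (pt_mem_setOf hy).mpr hy') rfl (by simp)
  refine ⟨τ, hτ, ?_, h2⟩
  simpa using h1

/-- Two points on an octad are moved to two given points of the base octad. -/
theorem exists_flag_two {o : Finset GolayPt} (ho : o ∈ octads) {x x' : GolayPt} (hx : x ∈ o)
    (hx' : x' ∈ o) (hne : x ≠ x') {y y' : ℕ} (hy : y < 24) (hyb : O0.testBit y = true)
    (hy' : y' < 24) (hyb' : O0.testBit y' = true) (hyne : y ≠ y') :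
    ∃ τ ∈ M24, τ x = pt y ∧ τ x' = pt y' ∧ τ • o = setOf O0 := by
  have hne2 : pt y ≠ pt y' := fun h => hyne (pt_injOn hy hy' h)
  obtain ⟨τ, hτ, h1, h2⟩ := exists_flag_list ho (l := [x, x']) (l' := [pt y, pt y'])
    (by simpa using hne)
    (by
      intro a ha
      simp only [List.mem_cons, List.not_mem_nil, or_false] at ha
      rcases ha with rfl | rfl <;> assumption)
    (by simpa using hne2)
    (by
      intro a ha
      simp only [List.mem_cons, List.not_mem_nil, or_false] at ha
      rcases ha with rfl | rfl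
      · exact (pt_mem_setOf hy).mpr hyb
      · exact (pt_mem_setOf hy').mpr hyb')
    rfl (by simp)
  simp only [List.map_cons, List.map_nil, List.cons.injEq, and_true] at h1
  exact ⟨τ, hτ, h1.1, h1.2, h2⟩

/-- A point off an octad is moved to a given point off the base octad. -/
theorem exists_flag_off {o : Finset GolayPt} (ho : o ∈ octads) {x : GolayPt} (hx : x ∉ o) {y : ℕ}
    (hy : y < 24) (hy' : O0.testBit y = false) : ∃ τ ∈ M24, τ x = pt y ∧ τ • o = setOf O0 := by
  classical
  obtain ⟨τ, hτ, h⟩ := Cfsg.Agent.Lib.Golay.Orbits.exists_smul_octad ho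
  have h1 : τ⁻¹ • o = setOf O0 := by
    rw [← h]; simp
  have h2 : τ⁻¹ x ∉ setOf O0 := by
    rw [← h1]
    intro hc
    exact hx ((mem_smul_iff τ⁻¹ x o).mp hc)
  have h3 : pt y ∉ setOf O0 := by
    rw [pt_mem_setOf hy, hy']
    simp
  obtain ⟨F, hF, hFc⟩ := Finset.exists_subset_card_eq (s := setOf O0) (n := 5)
    (by rw [O0_mem.2]; norm_num)
  obtain ⟨ρ, hρ, hfix, hρa⟩ := Cfsg.Agent.Lib.M24Orb.Triads.exists_fix_five hFc O0_mem hF
    (a := τ⁻¹ x) (b := pt y) (Or.inr ⟨h2, h3⟩)
  refine ⟨ρ * τ⁻¹, M24.mul_mem hρ (M24.inv_mem hτ), hρa, ?_⟩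
  rw [mul_smul, h1]
  exact smul_octad_eq_of_fix hρ O0_mem F hfix hF (by omega)

/-- A point on an octad and a point off it are moved to the base flag. -/
theorem exists_flag_on_off {o : Finset GolayPt} (ho : o ∈ octads) {x y : GolayPt} (hx : x ∈ o)
    (hy : y ∉ o) {a b : ℕ} (ha : a < 24) (ha' : O0.testBit a = true) (hb : b < 24)
    (hb' : O0.testBit b = false) : ∃ τ ∈ M24, τ x = pt a ∧ τ y = pt b ∧ τ • o = setOf O0 := by
  classical
  obtain ⟨τ, hτ, h1, h2⟩ := exists_flag_one ho hx ha ha'
  have h3 : τ y ∉ setOf O0 := by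
    rw [← h2]
    intro hc
    exact hy ((mem_smul_iff τ y o).mp hc)
  have h4 : pt b ∉ setOf O0 := by
    rw [pt_mem_setOf hb, hb']
    simp
  have h5 : pt a ∈ setOf O0 := (pt_mem_setOf ha).mpr ha'
  have hl : ([pt a] : List GolayPt).Nodup := by simp
  obtain ⟨r, hr, hlr, hrs⟩ := exists_extend_list (s := setOf O0) hl (by simpa using h5) 4
    (by rw [O0_mem.2]; simp)
  have hF : ((pt a :: r).toFinset).card = 5 := by
    rw [List.toFinset_card_of_nodup (by simpa using hlr)]
    simp [hr]
  have hFs : (pt a :: r).toFinset ⊆ setOf O0 := by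
    intro z hz
    rcases List.mem_cons.mp (List.mem_toFinset.mp hz) with rfl | hz'
    · exact h5
    · exact hrs z hz'
  obtain ⟨ρ, hρ, hfix, hρa⟩ := Cfsg.Agent.Lib.M24Orb.Triads.exists_fix_five hF O0_mem hFs
    (a := τ y) (b := pt b) (Or.inr ⟨h3, h4⟩)
  refine ⟨ρ * τ, M24.mul_mem hρ hτ, ?_, hρa, ?_⟩
  · rw [Equiv.Perm.mul_apply, h1]
    exact hfix _ (List.mem_toFinset.mpr List.mem_cons_self)
  · rw [mul_smul, h2]
    exact smul_octad_eq_of_fix hρ O0_mem _ hfix hFs (by omega)

open Cfsg.Agent.Lib.Golay.Dodecad in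
/-- A point on a dodecad is moved to the base point of the base dodecad. -/
theorem exists_flag_dodecad {d : Finset GolayPt} (hd : d ∈ dodecads) {x : GolayPt} (hx : x ∈ d) :
    ∃ τ ∈ M24, τ x = pt p0 ∧ τ • d = setOf d0 := by
  obtain ⟨σ, hσ, h⟩ := exists_smul_d0 hd
  have h1 : σ⁻¹ • d = setOf d0 := by
    rw [← h]; simp
  have h2 : σ⁻¹ x ∈ setOf d0 := by
    rw [← h1]
    exact (mem_smul_iff σ⁻¹ x d).mpr hx
  obtain ⟨ρ, hρ, hρa⟩ := transitive_on_dodecad d0_mem h2 p0_mem
  refine ⟨ρ * σ⁻¹, M24.mul_mem hρ.1 (M24.inv_mem hσ), hρa, ?_⟩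
  rw [mul_smul, h1]
  exact MulAction.mem_stabilizer_iff.mp hρ.2

open Cfsg.Agent.Lib.Golay.Dodecad in
/-- Five points of a dodecad are moved to the five base points of the base dodecad. -/
theorem exists_dodecad_five {d : Finset GolayPt} (hd : d ∈ dodecads) {l : List GolayPt}
    (hlen : l.length = 5) (hnd : l.Nodup) (hsub : ∀ x ∈ l, x ∈ d) :
    ∃ τ ∈ M24, τ • d = setOf d0 ∧ l.map τ = [pt 23, pt 0, pt 1, pt 2, pt 3] := by
  obtain ⟨ρ, hρ, h⟩ := exists_map_list l [pt 23, pt 0, pt 1, pt 2, pt 3] hlen (by omega) hnd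
    (by decide +kernel)
  have hB : setOf B5 ⊆ ρ • d := by
    intro x hx
    have hx' : x ∈ [pt 23, pt 0, pt 1, pt 2, pt 3] := by
      revert x
      decide +kernel
    rw [← h, List.mem_map] at hx'
    obtain ⟨y, hy, rfl⟩ := hx'
    exact Finset.smul_mem_smul_finset (hsub y hy)
  obtain ⟨τ, hτ, hτd⟩ := exists_smul_d0_of_base (smul_mem_dodecads hρ hd) hB
  refine ⟨τ⁻¹ * ρ, M24.mul_mem (M24.inv_mem hτ.1) hρ, ?_, ?_⟩
  · rw [mul_smul, inv_smul_eq_iff, hτd]
  · have hfix : ∀ x ∈ [pt 23, pt 0, pt 1, pt 2, pt 3], τ⁻¹ x = x := by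
      intro x hx
      rw [Equiv.Perm.inv_eq_iff_eq]
      have h1 : ∀ x ∈ [pt 23, pt 0, pt 1, pt 2, pt 3], idx x ∈ [3, 2, 1, 0, 23] := by decide +kernel
      have h2 := hτ.2 _ (h1 x hx)
      rw [pt_idx] at h2
      exact h2.symm
    rw [← h]
    rw [← h] at hfix
    apply List.map_congr_left
    intro x hx
    rw [Equiv.Perm.mul_apply]
    exact hfix _ (List.mem_map.mpr ⟨x, hx, rfl⟩)

/-- The set with mask a single point. -/
theorem setOf_one_shift {i : ℕ} (hi : i < 24) : setOf (Nat.shiftLeft 1 i) = {pt i} := by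
  ext p
  rw [mem_setOf, Finset.mem_singleton]
  have e : Nat.shiftLeft 1 i = 2 ^ i := by
    show 1 <<< i = _
    rw [Nat.one_shiftLeft]
  rw [e, Nat.testBit_two_pow]
  simp only [decide_eq_true_eq]
  constructor
  · intro h
    rw [h, pt_idx]
  · rintro rfl
    exact (idx_pt hi).symm

/-- An element carrying a mask of one point to another moves the point. -/
theorem apply_of_smul_one {σ : Equiv.Perm GolayPt} {i j : ℕ} (hi : i < 24) (hj : j < 24)
    (h : σ • setOf (Nat.shiftLeft 1 i) = setOf (Nat.shiftLeft 1 j)) : σ (pt i) = pt j := by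
  rw [setOf_one_shift hi, setOf_one_shift hj, Finset.smul_finset_singleton] at h
  exact Finset.singleton_injective h

end Cfsg.Agent.Lib.GolayCert.Basic
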