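import Cfsg.Agent.Lib.GolayCert.Basic
import Cfsg.Agent.Lib.PermComp.Mathieu.Simple1x

/-!
# Stabilisers of a dodecad with a point on it, acting on the complement
-/

set_option autoImplicit false

namespace Cfsg.Agent.Lib.GolayCert.M11

open Cfsg Cfsg.Agent.Lib.Golay.Core Cfsg.Agent.Lib.Golay.Perm Cfsg.Agent.Lib.Golay.Chain
  Cfsg.Agent.Lib.Golay.M24 Cfsg.Agent.Lib.Golay.Dodecad Cfsg.Agent.Lib.GolayCert.Basic
open scoped Pointwise

/-- Orbit-stabiliser, for a subgroup. -/
theorem card_inf_of_orbit {G X : Type*} [Group G] [MulAction G X] (M : Subgroup G) (b : X)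
    (O : Set X) (h1 : ∀ g ∈ M, g • b ∈ O) (h2 : ∀ q ∈ O, ∃ g ∈ M, g • b = q) :
    Nat.card M = O.ncard * Nat.card ↥(M ⊓ MulAction.stabilizer G b) := by
  have horb : MulAction.orbit M b = O := by
    ext q
    constructor
    · rintro ⟨g, rfl⟩
      exact h1 g.1 g.2
    · intro hq
      obtain ⟨g, hg, rfl⟩ := h2 q hq
      exact ⟨⟨g, hg⟩, rfl⟩
  have h3 := Subgroup.card_mul_index (MulAction.stabilizer M b)
  rw [MulAction.index_stabilizer, horb] at h3
  have h4 : Nat.card ↥(MulAction.stabilizer M b) = Nat.card ↥(M ⊓ MulAction.stabilizer G b) := by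
    apply Nat.card_congr
    refine ⟨fun x => ⟨x.1.1, x.1.2, x.2⟩, fun x => ⟨⟨x.1, x.2.1⟩, x.2.2⟩, fun x => rfl, fun x => rfl⟩
  rw [← h3, h4, mul_comm]

/-- Conjugation of a triple intersection of stabilisers. -/
theorem nonempty_equiv_inf_conj3' {G : Type*} [Group G] {X Y Z : Type*} [MulAction G X]
    [MulAction G Y] [MulAction G Z] (g : G) (a : X) (b : Y) (c : Z) :
    Nonempty (↥(MulAction.stabilizer G a ⊓ MulAction.stabilizer G b ⊓ MulAction.stabilizer G c) ≃*
      ↥(MulAction.stabilizer G (g • a) ⊓ MulAction.stabilizer G (g • b) ⊓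
        MulAction.stabilizer G (g • c))) := by
  refine ⟨(MulEquiv.subgroupMap (MulAut.conj g) _).trans (MulEquiv.subgroupCongr ?_)⟩
  rw [Subgroup.map_inf _ _ _ (MulAut.conj g).injective,
    Subgroup.map_inf _ _ _ (MulAut.conj g).injective]
  rw [MulAction.stabilizer_smul_eq_stabilizer_map_conj,
    MulAction.stabilizer_smul_eq_stabilizer_map_conj,
    MulAction.stabilizer_smul_eq_stabilizer_map_conj]
  rfl

/-- The embedding of `Fin 3` with the given images. -/
def emb3 (a b c : GolayPt) (hab : a ≠ b) (hac : a ≠ c) (hbc : b ≠ c) : Fin 3 ↪ GolayPt :=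
  ⟨![a, b, c], by
    intro i j hij
    fin_cases i <;> fin_cases j <;> simp_all [eq_comm]⟩

/-- Three-fold transitivity on the complement, for three points. -/
theorem three_transitive_pts {d : Finset GolayPt} (hd : d ∈ dodecads) {p : GolayPt} (hp : p ∈ d)
    {a b c a' b' c' : GolayPt} (ha : a ∉ d) (hb : b ∉ d) (hc : c ∉ d) (ha' : a' ∉ d) (hb' : b' ∉ d)
    (hc' : c' ∉ d) (hab : a ≠ b) (hac : a ≠ c) (hbc : b ≠ c) (hab' : a' ≠ b') (hac' : a' ≠ c')
    (hbc' : b' ≠ c') :
    ∃ g ∈ MulAction.stabilizer M24 d ⊓ MulAction.stabilizer M24 p,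
      (g : Equiv.Perm GolayPt) a = a' ∧ (g : Equiv.Perm GolayPt) b = b' ∧
        (g : Equiv.Perm GolayPt) c = c' := by
  obtain ⟨g, hg, h⟩ := three_transitive hd hp (emb3 a b c hab hac hbc) (emb3 a' b' c' hab' hac' hbc')
    (by
      intro i
      show ![a, b, c] i ∉ d
      fin_cases i <;> simpa)
    (by
      intro i
      show ![a', b', c'] i ∉ d
      fin_cases i <;> simpa)
  exact ⟨g, hg, h 0, h 1, h 2⟩

/-- Two-fold transitivity on the complement. -/
theorem two_transitive_pts {d : Finset GolayPt} (hd : d ∈ dodecads) {p : GolayPt} (hp : p ∈ d)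
    {a b a' b' : GolayPt} (ha : a ∉ d) (hb : b ∉ d) (ha' : a' ∉ d) (hb' : b' ∉ d)
    (hab : a ≠ b) (hab' : a' ≠ b') :
    ∃ g ∈ MulAction.stabilizer M24 d ⊓ MulAction.stabilizer M24 p,
      (g : Equiv.Perm GolayPt) a = a' ∧ (g : Equiv.Perm GolayPt) b = b' := by
  classical
  have hcard : dᶜ.card = 12 := by
    rw [Finset.card_compl, hd.2, card_golayPt]
  obtain ⟨r, hr, hn, hs⟩ := exists_extend_list (s := dᶜ) (l := [a, b]) (by simpa using hab)
    (by
      intro x hx
      simp only [List.mem_cons, List.not_mem_nil, or_false] at hx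
      rcases hx with rfl | rfl <;> simpa) 1 (by rw [hcard]; simp)
  obtain ⟨r', hr', hn', hs'⟩ := exists_extend_list (s := dᶜ) (l := [a', b']) (by simpa using hab')
    (by
      intro x hx
      simp only [List.mem_cons, List.not_mem_nil, or_false] at hx
      rcases hx with rfl | rfl <;> simpa) 1 (by rw [hcard]; simp)
  obtain ⟨c, rfl⟩ := List.length_eq_one_iff.mp hr
  obtain ⟨c', rfl⟩ := List.length_eq_one_iff.mp hr'
  have h1 : c ∉ d := by simpa using hs c (by simp)
  have h2 : c' ∉ d := by simpa using hs' c' (by simp)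
  simp only [List.cons_append, List.nil_append, List.nodup_cons, List.mem_cons, List.not_mem_nil,
    or_false, not_or, List.nodup_nil, and_true, not_false_eq_true] at hn hn'
  obtain ⟨g, hg, e1, e2, -⟩ := three_transitive_pts hd hp ha hb h1 ha' hb' h2 hab hn.1.2
    hn.2 hab' hn'.1.2 hn'.2
  exact ⟨g, hg, e1, e2⟩

/-- Transitivity on the complement. -/
theorem one_transitive_pts {d : Finset GolayPt} (hd : d ∈ dodecads) {p : GolayPt} (hp : p ∈ d)
    {a a' : GolayPt} (ha : a ∉ d) (ha' : a' ∉ d) :
    ∃ g ∈ MulAction.stabilizer M24 d ⊓ MulAction.stabilizer M24 p,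
      (g : Equiv.Perm GolayPt) a = a' := by
  classical
  have hcard : dᶜ.card = 12 := by
    rw [Finset.card_compl, hd.2, card_golayPt]
  obtain ⟨r, hr, hn, hs⟩ := exists_extend_list (s := dᶜ) (l := [a]) (by simp)
    (by
      intro x hx
      simp only [List.mem_cons, List.not_mem_nil, or_false] at hx
      rcases hx with rfl
      simpa) 1 (by rw [hcard]; simp)
  obtain ⟨r', hr', hn', hs'⟩ := exists_extend_list (s := dᶜ) (l := [a']) (by simp)
    (by
      intro x hx
      simp only [List.mem_cons, List.not_mem_nil, or_false] at hx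
      rcases hx with rfl
      simpa) 1 (by rw [hcard]; simp)
  obtain ⟨c, rfl⟩ := List.length_eq_one_iff.mp hr
  obtain ⟨c', rfl⟩ := List.length_eq_one_iff.mp hr'
  have h1 : c ∉ d := by simpa using hs c (by simp)
  have h2 : c' ∉ d := by simpa using hs' c' (by simp)
  simp only [List.cons_append, List.nil_append, List.nodup_cons, List.mem_cons, List.not_mem_nil,
    or_false, not_or, List.nodup_nil, and_true, not_false_eq_true] at hn hn'
  obtain ⟨g, hg, e1, -⟩ := two_transitive_pts hd hp ha h1 ha' h2 hn hn'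
  exact ⟨g, hg, e1⟩

/-- A dodecad, a point on it, and a point off it. -/
theorem card_stab_three {d : Finset GolayPt} (hd : d ∈ dodecads) {p q : GolayPt} (hp : p ∈ d)
    (hq : q ∉ d) : Nat.card ↥(MulAction.stabilizer M24 d ⊓ MulAction.stabilizer M24 p ⊓
      MulAction.stabilizer M24 q) = 660 := by
  classical
  have h := card_inf_of_orbit (MulAction.stabilizer M24 d ⊓ MulAction.stabilizer M24 p) q
    ((dᶜ : Finset GolayPt) : Set GolayPt)
    (by
      intro g hg
      have h1 : (g : Equiv.Perm GolayPt) • d = d := MulAction.mem_stabilizer_iff.mp hg.1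
      have h2 : (g : Equiv.Perm GolayPt) q ∉ d := by
        intro hc
        have h3 := (mem_smul_iff (g : Equiv.Perm GolayPt) q d).mp (by rwa [h1])
        exact hq h3
      exact Finset.mem_coe.mpr (Finset.mem_compl.mpr h2))
    (by
      intro r hr
      have hr' : r ∉ d := by simpa using hr
      obtain ⟨g, hg, e⟩ := one_transitive_pts hd hp hq hr'
      exact ⟨g, hg, e⟩)
  rw [card_stab_dodecad_point hd hp, Set.ncard_coe_finset, Finset.card_compl, hd.2,
    card_golayPt] at h
  omega

/-- A dodecad, a point on it, and a pair off it. -/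
theorem card_stab_pair {d : Finset GolayPt} (hd : d ∈ dodecads) {p q q' : GolayPt} (hp : p ∈ d)
    (hq : q ∉ d) (hq' : q' ∉ d) (hqq' : q ≠ q') :
    Nat.card ↥(MulAction.stabilizer M24 d ⊓ MulAction.stabilizer M24 p ⊓
      MulAction.stabilizer M24 ({q, q'} : Finset GolayPt)) = 120 := by
  classical
  have h := card_inf_of_orbit (MulAction.stabilizer M24 d ⊓ MulAction.stabilizer M24 p)
    ({q, q'} : Finset GolayPt) ((Finset.powersetCard 2 dᶜ : Finset (Finset GolayPt)) :
      Set (Finset GolayPt))
    (by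
      intro g hg
      have h1 : (g : Equiv.Perm GolayPt) • d = d := MulAction.mem_stabilizer_iff.mp hg.1
      have hnot : ∀ z, z ∉ d → (g : Equiv.Perm GolayPt) z ∉ d := by
        intro z hz hc
        exact hz ((mem_smul_iff (g : Equiv.Perm GolayPt) z d).mp (by rwa [h1]))
      rw [Finset.mem_coe, Finset.mem_powersetCard]
      refine ⟨?_, ?_⟩
      · intro z hz
        obtain ⟨y, hy, rfl⟩ := Finset.mem_smul_finset.mp hz
        simp only [Finset.mem_insert, Finset.mem_singleton] at hy
        rw [Finset.mem_compl]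
        rcases hy with rfl | rfl
        · exact hnot _ hq
        · exact hnot _ hq'
      · show ((g : Equiv.Perm GolayPt) • ({q, q'} : Finset GolayPt)).card = 2
        rw [Finset.card_smul_finset, Finset.card_pair hqq'])
    (by
      intro t ht
      rw [Finset.mem_coe, Finset.mem_powersetCard] at ht
      obtain ⟨a, b, hab, rfl⟩ := Finset.card_eq_two.mp ht.2
      have ha : a ∉ d := by
        have := ht.1 (show a ∈ ({a, b} : Finset GolayPt) by simp)
        simpa using this
      have hb : b ∉ d := by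
        have := ht.1 (show b ∈ ({a, b} : Finset GolayPt) by simp)
        simpa using this
      obtain ⟨g, hg, e1, e2⟩ := two_transitive_pts hd hp hq hq' ha hb hqq' hab
      refine ⟨g, hg, ?_⟩
      show (g : Equiv.Perm GolayPt) • ({q, q'} : Finset GolayPt) = {a, b}
      rw [Finset.smul_finset_insert, Finset.smul_finset_singleton]
      show {(g : Equiv.Perm GolayPt) q, (g : Equiv.Perm GolayPt) q'} = _
      rw [e1, e2])
  rw [card_stab_dodecad_point hd hp, Set.ncard_coe_finset, Finset.card_powersetCard,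
    Finset.card_compl, hd.2, card_golayPt] at h
  have h66 : Nat.choose (24 - 12) 2 = 66 := by decide
  rw [h66] at h
  omega

/-- A group acting faithfully on an invariant set of `n` points, of order `n!`, is symmetric. -/
theorem nonempty_mulEquiv_perm_of_invariant {G α : Type*} [Group G] [Finite G] [MulAction G α]
    [DecidableEq α] (X : Finset α) {n : ℕ} (hX : ∀ g : G, ∀ x ∈ X, g • x ∈ X) (hn : X.card = n)
    (hfaith : ∀ g : G, (∀ x ∈ X, g • x = x) → g = 1) (hG : Nat.card G = n.factorial) :
    Nonempty (G ≃* Equiv.Perm (Fin n)) := by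
  let Y : SubMulAction G α := ⟨(X : Set α), fun g x hx => hX g x hx⟩
  have hinj : Function.Injective (MulAction.toPermHom G Y) := by
    rw [injective_iff_map_eq_one]
    intro g hg
    apply hfaith
    intro x hx
    have := congrArg (fun σ : Equiv.Perm Y => σ ⟨x, hx⟩) hg
    exact congrArg Subtype.val this
  have hcardY : Nat.card Y = n := by
    rw [← hn, ← Nat.card_eq_finsetCard]
    rfl
  have hfinY : Finite Y := by
    show Finite ↥(X : Set α)
    exact X.finite_toSet.to_subtype
  let e : Y ≃ Fin n := Finite.equivFinOfCardEq hcardY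
  have hcp : Nat.card (Equiv.Perm Y) ≤ Nat.card G := by
    rw [hG]
    have := Fintype.ofFinite Y
    rw [Nat.card_eq_fintype_card, Fintype.card_perm, ← Nat.card_eq_fintype_card, hcardY]
  have hbij : Function.Bijective (MulAction.toPermHom G Y) :=
    hinj.bijective_of_nat_card_le hcp
  exact ⟨(MulEquiv.ofBijective _ hbij).trans (Equiv.permCongrHom e)⟩

end Cfsg.Agent.Lib.GolayCert.M11
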